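import Mathlib
import Cfsg.Agent.PGroup.Normal
import Cfsg.Agent.PGroup.Commutator
import Cfsg.Agent.PGroup.UniqueOrderP
import Cfsg.Agent.Counting.Frobenius
import Cfsg.Agent.Constrained.Basic

/-!
Miller's theorem: in a group with noncyclic Sylow `p`-subgroups, `p` odd, the number of elements of order
`p ^ s`, `s ≥ 2`, is divisible by `p ^ s`.
-/

set_option autoImplicit false

namespace CfsgLib.MillerCount

open scoped commutatorElement

universe u

theorem dvd_totient_prime_pow {p s j : ℕ} (hp : p.Prime) (h : s ≤ j + 1) : p ^ (s - 2) ∣ (p ^ j).totient := by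
  rcases Nat.eq_zero_or_pos j with rfl | hj
  · rw [show s - 2 = 0 by omega, pow_zero]; exact one_dvd _
  · rw [Nat.totient_prime_pow hp hj]
    exact (pow_dvd_pow p (by omega)).trans (dvd_mul_right _ _)

theorem commutator_mem_center {P : Type u} [Group P] [Finite P] {p : ℕ} [hp : Fact p.Prime]
    (hP : IsPGroup p P) (E : Subgroup P) [hEn : E.Normal] (hE : Nat.card E = p ^ 2) (w e : P) (he : e ∈ E) :
    ⁅w, e⁆ ∈ E ⊓ Subgroup.center P := by
  have hEbot : E ≠ ⊥ := fun h => by
    rw [h, Subgroup.card_bot] at hE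
    exact (Nat.one_lt_pow two_ne_zero hp.out.one_lt).ne hE
  have hNne := CfsgLib.PGroup.inf_center_ne_bot hP E hEbot
  set N := E ⊓ Subgroup.center P
  haveI hNn : N.Normal := inferInstance
  have h1 : N.relIndex E * Nat.card N = p ^ 2 := by
    rw [← hE, ← Subgroup.relIndex_bot_left N, ← Subgroup.relIndex_bot_left E, mul_comm]
    exact Subgroup.relIndex_mul_relIndex _ _ _ bot_le inf_le_left
  obtain ⟨j, hj2, hj⟩ := (Nat.dvd_prime_pow hp.out).mp (Dvd.intro _ h1)
  have hNc : 1 < Nat.card N := (Subgroup.one_lt_card_iff_ne_bot N).mpr hNne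
  have hj1 : j ≤ 1 := by
    by_contra h
    rw [hj, show j = 2 by omega] at h1
    have := mul_left_cancel₀ (pow_ne_zero 2 hp.out.ne_zero) (h1.trans (mul_one _).symm)
    omega
  rcases (show j = 0 ∨ j = 1 by omega) with rfl | rfl
  · rw [pow_zero, Subgroup.relIndex_eq_one] at hj
    have hz : ⁅w, e⁆ = 1 :=
      commutatorElement_eq_one_iff_mul_comm.mpr (Subgroup.mem_center_iff.mp (hj he).2 w)
    rw [hz]; exact N.one_mem
  · rw [pow_one] at hj
    rw [← QuotientGroup.eq_one_iff]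
    have hcen := CfsgLib.PGroup.le_center_of_card_eq (hP.to_quotient N) (E.map (QuotientGroup.mk' N))
      (by rw [← CfsgLib.Constrained.relIndex_eq_card_map, hj])
    show QuotientGroup.mk' N ⁅w, e⁆ = 1
    rw [map_commutatorElement, commutatorElement_eq_one_iff_mul_comm]
    exact Subgroup.mem_center_iff.mp (hcen (Subgroup.mem_map_of_mem _ he)) _

/-- Miller's theorem for `p`-groups. -/
theorem card_orderOf_pgroup {P : Type u} [Group P] [Finite P] {p : ℕ} [hp : Fact p.Prime]
    (hodd : p ≠ 2) (hP : IsPGroup p P) (hnc : ¬ IsCyclic P) {s : ℕ} (hs : 2 ≤ s) :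
    p ^ s ∣ Nat.card {w : P // orderOf w = p ^ s} := by
  obtain ⟨E, hEn, ⟨-, hEe⟩, hE⟩ := CfsgLib.PGroup.exists_normal_elementary_sq hodd hP hnc
  haveI := hEn
  have hmul : ∀ w e : P, e ∈ E → (w * e) ^ p = w ^ p := by
    intro w e he
    have hc := commutator_mem_center hP E hE w e he
    have hcomm : ∀ g, Commute ⁅w, e⁆ g := fun g => (Subgroup.mem_center_iff.mp hc.2 g).symm
    rw [CfsgLib.PGroup.mul_pow_of_odd (hcomm w) (hcomm e) (hp.out.odd_of_ne_two hodd) (hEe _ hc.1),
      hEe e he, mul_one]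
  have hiff : ∀ w : P, orderOf w = p ^ s ↔ (w ^ p ^ s = 1 ∧ w ^ p ^ (s - 1) ≠ 1) := by
    intro w
    constructor
    · intro h
      refine ⟨h ▸ pow_orderOf_eq_one w, fun h' => ?_⟩
      have := orderOf_dvd_of_pow_eq_one h'
      rw [h, Nat.pow_dvd_pow_iff_le_right hp.out.one_lt] at this
      omega
    · rintro ⟨h1, h2⟩
      have := orderOf_eq_prime_pow (x := w) (n := s - 1) h2 (by rwa [show s - 1 + 1 = s by omega])
      rwa [show s - 1 + 1 = s by omega] at this
  have hinv : ∀ w e : P, e ∈ E → orderOf w = p ^ s → orderOf (w * e) = p ^ s := by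
    intro w e he h
    have hpow : ∀ j, 1 ≤ j → (w * e) ^ p ^ j = w ^ p ^ j := by
      intro j hj
      obtain ⟨i, rfl⟩ : ∃ i, j = i + 1 := ⟨j - 1, by omega⟩
      rw [pow_succ', pow_mul, pow_mul, hmul w e he]
    rw [hiff] at h ⊢
    rwa [hpow s (by omega), hpow (s - 1) (by omega)]
  let S' : P ⧸ E → Prop := fun q => ∃ w : P, orderOf w = p ^ s ∧ (w : P ⧸ E) = q
  have hcard : Nat.card {w : P // orderOf w = p ^ s} = Nat.card {q // S' q} * Nat.card E := by
    rw [← Nat.card_prod]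
    refine (Nat.card_congr ?_).symm
    exact
      { toFun := fun x => ⟨x.1.2.choose * (x.2 : P), hinv _ _ x.2.2 x.1.2.choose_spec.1⟩
        invFun := fun w => (⟨(w.1 : P ⧸ E), w.1, w.2, rfl⟩,
          ⟨(⟨w.1, w.2, rfl⟩ : S' (w.1 : P ⧸ E)).choose⁻¹ * w.1,
            QuotientGroup.eq.mp (⟨w.1, w.2, rfl⟩ : S' (w.1 : P ⧸ E)).choose_spec.2⟩)
        left_inv := by
          rintro ⟨⟨q, hq⟩, e⟩
          have h1 : ((hq.choose * (e : P) : P) : P ⧸ E) = q := by
            rw [QuotientGroup.mk_mul, (QuotientGroup.eq_one_iff (e : P)).mpr e.2, mul_one, hq.choose_spec.2]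
          have key : ∀ (q' : P ⧸ E) (hq' : S' q'), q' = q → hq'.choose = hq.choose := by
            rintro q' hq' rfl; rfl
          refine Prod.ext (Subtype.ext h1) (Subtype.ext ?_)
          simp only
          rw [key _ _ h1, inv_mul_cancel_left]
        right_inv := fun w => Subtype.ext (mul_inv_cancel_left _ _) }
  rw [hcard, hE, show p ^ s = p ^ (s - 2) * p ^ 2 by rw [← pow_add]; congr 1; omega]
  refine Nat.mul_dvd_mul_right ?_ _
  refine CfsgLib.Counting.dvd_card_of_totient S' ?_ _ ?_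
  · rintro q q' ⟨w, hw, rfl⟩ hqq'
    have hmem : q' ∈ Subgroup.zpowers (w : P ⧸ E) := hqq' ▸ Subgroup.mem_zpowers q'
    obtain ⟨a, rfl⟩ : ∃ a : ℕ, (w : P ⧸ E) ^ a = q' := (mem_powers_iff_mem_zpowers.mpr hmem)
    refine ⟨w ^ a, ?_, rfl⟩
    have h1 : orderOf ((w : P ⧸ E) ^ a) = orderOf (w : P ⧸ E) := by
      rw [← Nat.card_zpowers, ← hqq', Nat.card_zpowers]
    have hne1 : (w : P ⧸ E) ≠ 1 := by
      intro h
      rw [QuotientGroup.eq_one_iff] at h
      have := orderOf_dvd_of_pow_eq_one (hEe w h)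
      rw [hw] at this
      have := Nat.le_of_dvd hp.out.pos this
      have h2 : p ^ 1 < p ^ s := Nat.pow_lt_pow_right hp.out.one_lt (by omega)
      rw [pow_one] at h2
      omega
    obtain ⟨j, hj⟩ := IsPGroup.iff_orderOf.mp (hP.to_quotient E) (w : P ⧸ E)
    have hj0 : 0 < j := by
      rcases Nat.eq_zero_or_pos j with rfl | h
      · rw [pow_zero, orderOf_eq_one_iff] at hj; exact absurd hj hne1
      · exact h
    have hco : Nat.Coprime p a := by
      rw [hp.out.coprime_iff_not_dvd]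
      intro hpa
      rw [orderOf_pow, hj] at h1
      have h2 : p ∣ Nat.gcd (p ^ j) a := Nat.dvd_gcd (dvd_pow_self p hj0.ne') hpa
      have h3 : 1 < Nat.gcd (p ^ j) a := lt_of_lt_of_le hp.out.one_lt (Nat.le_of_dvd (Nat.gcd_pos_of_pos_left _ (pow_pos hp.out.pos j)) h2)
      exact (Nat.div_lt_self (pow_pos hp.out.pos j) h3).ne h1
    rw [Nat.Coprime.orderOf_pow (by rw [hw]; exact hco.pow_left s), hw]
  · rintro q ⟨w, hw, rfl⟩
    obtain ⟨j, hj⟩ := IsPGroup.iff_orderOf.mp (hP.to_quotient E) (w : P ⧸ E)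
    rw [hj]
    refine dvd_totient_prime_pow hp.out ?_
    have hwE : w ^ p ^ j ∈ E := by
      rw [← QuotientGroup.eq_one_iff, QuotientGroup.mk_pow, ← hj, pow_orderOf_eq_one]
    have : orderOf w ∣ p ^ (j + 1) := orderOf_dvd_of_pow_eq_one (by rw [pow_succ, pow_mul]; exact hEe _ hwE)
    rw [hw, Nat.pow_dvd_pow_iff_le_right hp.out.one_lt] at this
    exact this

/-- Counting generators. -/
theorem card_generators {G : Type u} [Group G] [Finite G] {N : ℕ} (Q : Subgroup G → Prop) :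
    Nat.card {g : G // orderOf g = N ∧ Q (Subgroup.zpowers g)} =
      Nat.card {H : Subgroup G // IsCyclic H ∧ Nat.card H = N ∧ Q H} * N.totient := by
  classical
  haveI := Fintype.ofFinite G
  haveI := Fintype.ofFinite {H : Subgroup G // IsCyclic H ∧ Nat.card H = N ∧ Q H}
  rw [← Nat.card_congr (Equiv.sigmaFiberEquiv (fun g : {g : G // orderOf g = N ∧ Q (Subgroup.zpowers g)} =>
    (⟨Subgroup.zpowers g.1, inferInstance, by rw [Nat.card_zpowers, g.2.1], g.2.2⟩ :
      {H : Subgroup G // IsCyclic H ∧ Nat.card H = N ∧ Q H}))), Nat.card_sigma]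
  rw [Finset.sum_congr rfl (fun H _ => ?_), Finset.sum_const, Finset.card_univ, smul_eq_mul, Nat.card_eq_fintype_card]
  obtain ⟨H, hc, hN, hQ⟩ := H
  haveI := hc
  haveI := Fintype.ofFinite H
  rw [← IsCyclic.card_orderOf_eq_totient (α := H) (d := N) (by rw [← Nat.card_eq_fintype_card, hN]),
    ← Fintype.card_subtype, ← Nat.card_eq_fintype_card]
  refine Nat.card_congr
    { toFun := fun x => ⟨⟨x.1.1, by
          have h := congrArg Subtype.val x.2
          exact (le_of_eq h) (Subgroup.mem_zpowers x.1.1)⟩, by rw [Subgroup.orderOf_mk]; exact x.1.2.1⟩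
      invFun := fun y => ⟨⟨y.1.1, by rw [Subgroup.orderOf_coe, y.2], by
          have : Subgroup.zpowers (y.1.1) = H := Subgroup.eq_of_le_of_card_ge (Subgroup.zpowers_le.mpr y.1.2)
            (by rw [Nat.card_zpowers, Subgroup.orderOf_coe, y.2, hN])
          rwa [this]⟩, Subtype.ext (Subgroup.eq_of_le_of_card_ge (Subgroup.zpowers_le.mpr y.1.2)
            (by rw [Nat.card_zpowers, Subgroup.orderOf_coe, y.2, hN]))⟩
      left_inv := fun x => rfl
      right_inv := fun y => rfl }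

theorem card_cyclic_modEq {G : Type u} [Group G] [Finite G] {p : ℕ} [hp : Fact p.Prime] (P : Sylow p G) {s : ℕ} :
    Nat.card {H : Subgroup G // IsCyclic H ∧ Nat.card H = p ^ s} ≡
      Nat.card {H : Subgroup G // IsCyclic H ∧ Nat.card H = p ^ s ∧ H ≤ (P : Subgroup G)} [MOD p] := by
  let Ω := {H : Subgroup G // IsCyclic H ∧ Nat.card H = p ^ s}
  let conjS : G → Subgroup G → Subgroup G := fun g H => H.map (MulAut.conj g).toMonoidHom
  have hok : ∀ (g : G) (H : Subgroup G), (IsCyclic H ∧ Nat.card H = p ^ s) →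
      (IsCyclic (conjS g H) ∧ Nat.card (conjS g H) = p ^ s) := fun g H ⟨h1, h2⟩ =>
    haveI := h1
    ⟨(H.equivMapOfInjective _ (MulAut.conj g).injective).isCyclic.mp h1,
      (Subgroup.card_map_of_injective (MulAut.conj g).injective).trans h2⟩
  letI act : MulAction (P : Subgroup G) Ω :=
    { smul := fun g H => ⟨conjS g H.1, hok g H.1 H.2⟩
      one_smul := fun H => Subtype.ext (by
        show conjS ((1 : (P : Subgroup G)) : G) H.1 = H.1
        ext x
        simp [conjS, Subgroup.mem_map])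
      mul_smul := fun g h H => Subtype.ext (by
        show conjS ((g * h : (P : Subgroup G)) : G) H.1 = conjS g (conjS h H.1)
        ext x
        simp [conjS, Subgroup.mem_map, mul_assoc]) }
  let Ω' := {H : Ω // H.1 ≤ (P : Subgroup G)}
  letI act' : MulAction (P : Subgroup G) Ω' :=
    { smul := fun g H => ⟨g • H.1, by
        rintro _ ⟨x, hx, rfl⟩
        exact Subgroup.mul_mem _ (Subgroup.mul_mem _ g.2 (H.2 hx)) (Subgroup.inv_mem _ g.2)⟩
      one_smul := fun H => Subtype.ext (one_smul (P : Subgroup G) H.1)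
      mul_smul := fun g h H => Subtype.ext (mul_smul g h H.1) }
  have h1 := P.2.card_modEq_card_fixedPoints Ω
  have h2 := P.2.card_modEq_card_fixedPoints Ω'
  have hfix : ∀ H : Ω, H ∈ MulAction.fixedPoints (P : Subgroup G) Ω → H.1 ≤ (P : Subgroup G) := by
    intro H hH
    have hn : (P : Subgroup G) ≤ Subgroup.normalizer (H.1 : Set G) := by
      intro g hg
      have he : conjS g H.1 = H.1 := congrArg Subtype.val (hH ⟨g, hg⟩)
      rw [Subgroup.mem_normalizer_iff]
      intro x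
      refine ⟨fun hx => he ▸ Subgroup.mem_map_of_mem _ hx, fun hx => ?_⟩
      obtain ⟨y, hy, hy'⟩ := Subgroup.mem_map.mp (he.symm ▸ hx : g * x * g⁻¹ ∈ conjS g H.1)
      exact (MulAut.conj g).injective hy' ▸ hy
    have hHp : IsPGroup p H.1 := IsPGroup.of_card H.2.2
    have hsup := P.2.to_sup_of_normal_right' hHp hn
    exact le_sup_right.trans (P.3 hsup le_sup_left).le
  have e : MulAction.fixedPoints (P : Subgroup G) Ω ≃ MulAction.fixedPoints (P : Subgroup G) Ω' :=
    { toFun := fun H => ⟨⟨H.1, hfix H.1 H.2⟩, fun g => Subtype.ext (H.2 g)⟩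
      invFun := fun H => ⟨H.1.1, fun g => congrArg Subtype.val (H.2 g)⟩
      left_inv := fun H => rfl
      right_inv := fun H => rfl }
  rw [Nat.card_congr e] at h1
  refine (h1.trans h2.symm).trans ?_
  rw [show Nat.card Ω' = _ from Nat.card_congr
    ((Equiv.subtypeSubtypeEquivSubtypeInter _ (fun H : Subgroup G => H ≤ (P : Subgroup G))).trans
      (Equiv.subtypeEquivRight fun H => and_assoc))]

/-- Miller's theorem. -/
theorem card_orderOf_sylow {G : Type u} [Group G] [Finite G] {p : ℕ} [hp : Fact p.Prime]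
    (hodd : p ≠ 2) (P : Sylow p G) (hnc : ¬ IsCyclic (P : Subgroup G)) {s : ℕ} (hs : 2 ≤ s) :
    p ^ s ∣ Nat.card {w : G // orderOf w = p ^ s} := by
  have hphi : (p ^ s).totient = p ^ (s - 1) * (p - 1) := Nat.totient_prime_pow hp.out (by omega)
  have hG : Nat.card {w : G // orderOf w = p ^ s} =
      Nat.card {H : Subgroup G // IsCyclic H ∧ Nat.card H = p ^ s} * (p ^ s).totient := by
    have := card_generators (G := G) (N := p ^ s) (fun _ => True)
    simpa using this
  have hP : Nat.card {w : (P : Subgroup G) // orderOf w = p ^ s} =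
      Nat.card {H : Subgroup G // IsCyclic H ∧ Nat.card H = p ^ s ∧ H ≤ (P : Subgroup G)} * (p ^ s).totient := by
    rw [← card_generators (fun H : Subgroup G => H ≤ (P : Subgroup G))]
    exact Nat.card_congr
      { toFun := fun w => ⟨w.1.1, by rw [Subgroup.orderOf_coe, w.2], Subgroup.zpowers_le.mpr w.1.2⟩
        invFun := fun w => ⟨⟨w.1, Subgroup.zpowers_le.mp w.2.2⟩, by rw [Subgroup.orderOf_mk]; exact w.2.1⟩
        left_inv := fun w => rfl
        right_inv := fun w => rfl }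
  have h := card_orderOf_pgroup hodd P.2 hnc hs
  have hs' : p ^ s = p ^ (s - 1) * p := by rw [← pow_succ]; congr 1; omega
  rw [hP, hphi, mul_left_comm] at h
  nth_rw 1 [hs'] at h
  have hp1 : Nat.Coprime p (p - 1) := by
    rw [hp.out.coprime_iff_not_dvd]
    intro hd
    have := Nat.le_of_dvd (by have := hp.out.two_le; omega) hd
    have := hp.out.two_le
    omega
  have h2 : p ∣ Nat.card {H : Subgroup G // IsCyclic H ∧ Nat.card H = p ^ s ∧ H ≤ (P : Subgroup G)} :=
    hp1.dvd_of_dvd_mul_right (Nat.dvd_of_mul_dvd_mul_left (pow_pos hp.out.pos _) h)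
  have h3 : p ∣ Nat.card {H : Subgroup G // IsCyclic H ∧ Nat.card H = p ^ s} :=
    (Nat.ModEq.dvd_iff (card_cyclic_modEq P) dvd_rfl).mpr h2
  rw [hG, hphi]
  obtain ⟨c, hc⟩ := h3
  exact ⟨c * (p - 1), by rw [hc, hs']; ring⟩

/-- Elements of order `r * t`, for coprime `r`, `t`, as commuting pairs. -/
theorem card_orderOf_mul {G : Type u} [Group G] [Finite G] {r t : ℕ} (hco : Nat.Coprime r t) :
    Nat.card {g : G // orderOf g = r * t} =
      Nat.card (Σ v : {v : G // orderOf v = t}, {u : Subgroup.centralizer ({(v : G)} : Set G) // orderOf u = r}) := by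
  obtain ⟨a, ha1, ha0⟩ := Nat.chineseRemainder hco 1 0
  obtain ⟨b, hb0, hb1⟩ := Nat.chineseRemainder hco 0 1
  have hu : ∀ g : G, orderOf g = r * t → orderOf (g ^ a) = r ∧ orderOf (g ^ b) = t ∧ g ^ a * g ^ b = g := by
    intro g hg
    have h1 : g ^ a * g ^ b = g := by
      rw [← pow_add]
      conv_rhs => rw [← pow_one g]
      rw [pow_eq_pow_iff_modEq, hg]
      exact (Nat.modEq_and_modEq_iff_modEq_mul hco).mp ⟨by simpa using ha1.add hb0, by simpa using ha0.add hb1⟩
    have hA : orderOf (g ^ a) ∣ r := orderOf_dvd_of_pow_eq_one (by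
      rw [← pow_mul, ← orderOf_dvd_iff_pow_eq_one, hg, mul_comm]
      exact Nat.mul_dvd_mul_right ((Nat.modEq_zero_iff_dvd).mp ha0) r)
    have hB : orderOf (g ^ b) ∣ t := orderOf_dvd_of_pow_eq_one (by
      rw [← pow_mul, ← orderOf_dvd_iff_pow_eq_one, hg]
      exact Nat.mul_dvd_mul_right ((Nat.modEq_zero_iff_dvd).mp hb0) t)
    have hlcm := (Commute.pow_pow_self g a b).orderOf_mul_eq_mul_orderOf_of_coprime
      (hco.of_dvd hA hB)
    rw [h1, hg] at hlcm
    have hpos := orderOf_pos g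
    rw [hg] at hpos
    have hA' := Nat.le_of_dvd (Nat.pos_of_mul_pos_right hpos) hA
    have hB' := Nat.le_of_dvd (Nat.pos_of_mul_pos_left hpos) hB
    refine ⟨?_, ?_, h1⟩
    · by_contra hne
      have : orderOf (g ^ a) * orderOf (g ^ b) < r * t :=
        Nat.mul_lt_mul_of_lt_of_le (lt_of_le_of_ne hA' hne) hB' (Nat.pos_of_mul_pos_left hpos)
      omega
    · by_contra hne
      have : orderOf (g ^ a) * orderOf (g ^ b) < r * t :=
        Nat.mul_lt_mul_of_le_of_lt hA' (lt_of_le_of_ne hB' hne) (Nat.pos_of_mul_pos_right hpos)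
      omega
  refine Nat.card_congr
    { toFun := fun g => ⟨⟨g.1 ^ b, (hu g.1 g.2).2.1⟩, ⟨⟨g.1 ^ a, Subgroup.mem_centralizer_singleton_iff.mpr
        (Commute.pow_pow_self g.1 a b).eq⟩, by rw [Subgroup.orderOf_mk]; exact (hu g.1 g.2).1⟩⟩
      invFun := fun x => ⟨(x.2.1 : G) * (x.1 : G), by
        have hc : Commute (x.2.1 : G) (x.1 : G) := Subgroup.mem_centralizer_singleton_iff.mp x.2.1.2
        rw [hc.orderOf_mul_eq_mul_orderOf_of_coprime
          (by rw [Subgroup.orderOf_coe, x.2.2, x.1.2]; exact hco), Subgroup.orderOf_coe, x.2.2, x.1.2]⟩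
      left_inv := fun g => Subtype.ext (hu g.1 g.2).2.2
      right_inv := ?_ }
  rintro ⟨⟨v, hv⟩, ⟨⟨u, huc⟩, hu'⟩⟩
  have hc : Commute u v := Subgroup.mem_centralizer_singleton_iff.mp huc
  have hu'' : orderOf u = r := by rw [← hu', Subgroup.orderOf_mk]
  have eb : (u * v) ^ b = v := by
    rw [hc.mul_pow, orderOf_dvd_iff_pow_eq_one.mp ((dvd_of_eq hu'').trans (Nat.modEq_zero_iff_dvd.mp hb0)), one_mul]
    conv_rhs => rw [← pow_one v]
    rw [pow_eq_pow_iff_modEq, hv]; exact hb1
  have ea : (u * v) ^ a = u := by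
    rw [hc.mul_pow, orderOf_dvd_iff_pow_eq_one.mp ((dvd_of_eq hv).trans (Nat.modEq_zero_iff_dvd.mp ha0)), mul_one]
    conv_rhs => rw [← pow_one u]
    rw [pow_eq_pow_iff_modEq, hu'']; exact ha1
  have key : ∀ (v₁ : G) (h₁ : orderOf v₁ = t) (u₁ : G) (hm : u₁ ∈ Subgroup.centralizer ({v₁} : Set G))
      (ho : orderOf (⟨u₁, hm⟩ : Subgroup.centralizer ({v₁} : Set G)) = r), v₁ = v → u₁ = u →
      (⟨⟨v₁, h₁⟩, ⟨⟨u₁, hm⟩, ho⟩⟩ : Σ v : {v : G // orderOf v = t}, {u : Subgroup.centralizer ({(v : G)} : Set G) // orderOf u = r}) =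
        ⟨⟨v, hv⟩, ⟨⟨u, huc⟩, hu'⟩⟩ := by
    intro v₁ h₁ u₁ hm ho e1 e2; subst e1; subst e2; rfl
  exact key _ _ _ _ _ eb ea

end CfsgLib.MillerCount
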